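import Mathlib
import Cfsg.Agent.Lib.PslRec.Seven

/-!
An explicit model of the simple group of order 168: elements are sign-normalized 2×2 matrices over `ZMod 7`
written as quadruples of naturals, so that kernel computation is fast.
-/

set_option autoImplicit false

namespace Cfsg.Agent.Lib.PslRec.M168

abbrev N4 := ℕ × ℕ × ℕ × ℕ

def qm (x y : N4) : N4 :=
  ((x.1 * y.1 + x.2.1 * y.2.2.1) % 7, (x.1 * y.2.1 + x.2.1 * y.2.2.2) % 7,
   (x.2.2.1 * y.1 + x.2.2.2 * y.2.2.1) % 7, (x.2.2.1 * y.2.1 + x.2.2.2 * y.2.2.2) % 7)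
def qd (x : N4) : ℕ := (x.1 * x.2.2.2 + 6 * (x.2.1 * x.2.2.1)) % 7
def qn (x : N4) : N4 := ((6 * x.1) % 7, (6 * x.2.1) % 7, (6 * x.2.2.1) % 7, (6 * x.2.2.2) % 7)
def canon (x : N4) : N4 := if (if x.1 = 0 then x.2.1 else x.1) ≤ 3 then x else qn x
def nm (x y : N4) : N4 := canon (qm x y)
def ninv (x : N4) : N4 := canon (x.2.2.2, (6 * x.2.1) % 7, (6 * x.2.2.1) % 7, x.1)
def one : N4 := (1, 0, 0, 1)
def npw (x : N4) : ℕ → N4
  | 0 => one
  | k + 1 => nm (npw x k) x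
def cj (c y : N4) : N4 := nm (nm c y) (ninv c)

def all : List N4 := [(0,1,6,0),(0,1,6,1),(0,1,6,2),(0,1,6,3),(0,1,6,4),(0,1,6,5),(0,1,6,6),(0,2,3,0),(0,2,3,1),(0,2,3,2),(0,2,3,3),(0,2,3,4),(0,2,3,5),(0,2,3,6),(0,3,2,0),(0,3,2,1),(0,3,2,2),(0,3,2,3),(0,3,2,4),(0,3,2,5),(0,3,2,6),(1,0,0,1),(1,0,1,1),(1,0,2,1),(1,0,3,1),(1,0,4,1),(1,0,5,1),(1,0,6,1),(1,1,0,1),(1,1,1,2),(1,1,2,3),(1,1,3,4),(1,1,4,5),(1,1,5,6),(1,1,6,0),(1,2,0,1),(1,2,1,3),(1,2,2,5),(1,2,3,0),(1,2,4,2),(1,2,5,4),(1,2,6,6),(1,3,0,1),(1,3,1,4),(1,3,2,0),(1,3,3,3),(1,3,4,6),(1,3,5,2),(1,3,6,5),(1,4,0,1),(1,4,1,5),(1,4,2,2),(1,4,3,6),(1,4,4,3),(1,4,5,0),(1,4,6,4),(1,5,0,1),(1,5,1,6),(1,5,2,4),(1,5,3,2),(1,5,4,0),(1,5,5,5),(1,5,6,3),(1,6,0,1),(1,6,1,0),(1,6,2,6),(1,6,3,5),(1,6,4,4),(1,6,5,3),(1,6,6,2),(2,0,0,4),(2,0,1,4),(2,0,2,4),(2,0,3,4),(2,0,4,4),(2,0,5,4),(2,0,6,4),(2,1,0,4),(2,1,1,1),(2,1,2,5),(2,1,3,2),(2,1,4,6),(2,1,5,3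),(2,1,6,0),(2,2,0,4),(2,2,1,5),(2,2,2,6),(2,2,3,0),(2,2,4,1),(2,2,5,2),(2,2,6,3),(2,3,0,4),(2,3,1,2),(2,3,2,0),(2,3,3,5),(2,3,4,3),(2,3,5,1),(2,3,6,6),(2,4,0,4),(2,4,1,6),(2,4,2,1),(2,4,3,3),(2,4,4,5),(2,4,5,0),(2,4,6,2),(2,5,0,4),(2,5,1,3),(2,5,2,2),(2,5,3,1),(2,5,4,0),(2,5,5,6),(2,5,6,5),(2,6,0,4),(2,6,1,0),(2,6,2,3),(2,6,3,6),(2,6,4,2),(2,6,5,5),(2,6,6,1),(3,0,0,5),(3,0,1,5),(3,0,2,5),(3,0,3,5),(3,0,4,5),(3,0,5,5),(3,0,6,5),(3,1,0,5),(3,1,1,3),(3,1,2,1),(3,1,3,6),(3,1,4,4),(3,1,5,2),(3,1,6,0),(3,2,0,5),(3,2,1,1),(3,2,2,4),(3,2,3,0),(3,2,4,3),(3,2,5,6),(3,2,6,2),(3,3,0,5),(3,3,1,6),(3,3,2,0),(3,3,3,1),(3,3,4,2),(3,3,5,3),(3,3,6,4),(3,4,0,5),(3,4,1,4),(3,4,2,3),(3,4,3,2),(3,4,4,1),(3,4,5,0),(3,4,6,6),(3,5,0,5),(3,5,1,2),(3,5,2,6),(3,5,3,3),(3,5,4,0),(3,5,5,4),(3,5,6,1),(3,6,0,5),(3,6,1,0),(3,6,2,2),(3,6,3,4),(3,6,4,6),(3,6,5,1),(3,6,6,3)]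

theorem all_spec : ∀ x ∈ all, qd x = 1 ∧ x.1 < 7 ∧ x.2.1 < 7 ∧ x.2.2.1 < 7 ∧ x.2.2.2 < 7 := by decide +kernel
theorem all_nodup : all.Nodup := by decide +kernel
theorem canon_mem : ∀ a b c d : Fin 7, qd (a.val, b.val, c.val, d.val) = 1 → canon (a.val, b.val, c.val, d.val) ∈ all := by
  decide +kernel
theorem qn_not_mem : ∀ x ∈ all, qn x ∉ all := by decide +kernel
theorem one_mem : one ∈ all := by decide +kernel
theorem ninv_mem : ∀ x ∈ all, ninv x ∈ all := by decide +kernel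
theorem mul_ninv : ∀ x ∈ all, nm x (ninv x) = one := by decide +kernel

abbrev SL7 := Matrix.SpecialLinearGroup (Fin 2) (ZMod 7)

/-- The matrix of a quadruple. -/
def toM (x : N4) : Matrix (Fin 2) (Fin 2) (ZMod 7) :=
  !![(x.1 : ZMod 7), (x.2.1 : ZMod 7); (x.2.2.1 : ZMod 7), (x.2.2.2 : ZMod 7)]

theorem six_eq : (6 : ZMod 7) = -1 := by decide +kernel

theorem toM_mul (x y : N4) : toM (qm x y) = toM x * toM y := by
  ext i j
  fin_cases i <;> fin_cases j <;>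
    simp [toM, qm, Matrix.mul_apply, Fin.sum_univ_two, ZMod.natCast_mod]

theorem toM_neg (x : N4) : toM (qn x) = - toM x := by
  ext i j
  fin_cases i <;> fin_cases j <;>
    simp [toM, qn, ZMod.natCast_mod, six_eq]

theorem cast_qd (x : N4) : ((qd x : ℕ) : ZMod 7) = (toM x).det := by
  simp [qd, toM, Matrix.det_fin_two, ZMod.natCast_mod, six_eq]
  ring

theorem qd_lt (x : N4) : qd x < 7 := Nat.mod_lt _ (by norm_num)

theorem qd_eq_one_iff (x : N4) : qd x = 1 ↔ (toM x).det = 1 := by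
  rw [← cast_qd]
  constructor
  · intro h; rw [h]; simp
  · intro h
    have h1 : ((qd x : ℕ) : ZMod 7) = ((1 : ℕ) : ZMod 7) := by simpa using h
    rw [ZMod.natCast_eq_natCast_iff'] at h1
    have := qd_lt x
    rw [Nat.mod_eq_of_lt this] at h1
    simpa using h1

theorem qd_qm {x y : N4} (hx : qd x = 1) (hy : qd y = 1) : qd (qm x y) = 1 := by
  rw [qd_eq_one_iff] at *
  rw [toM_mul, Matrix.det_mul, hx, hy, mul_one]

theorem qd_qn {x : N4} (hx : qd x = 1) : qd (qn x) = 1 := by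
  rw [qd_eq_one_iff] at *
  rw [toM_neg, Matrix.det_neg]
  simp [hx]

theorem canon_eq (x : N4) : canon x = x ∨ canon x = qn x := by
  by_cases h : (if x.1 = 0 then x.2.1 else x.1) ≤ 3
  · left; unfold canon; rw [if_pos h]
  · right; unfold canon; rw [if_neg h]

theorem qd_canon {x : N4} (hx : qd x = 1) : qd (canon x) = 1 := by
  rcases canon_eq x with h | h <;> rw [h]
  · exact hx
  · exact qd_qn hx

theorem qd_nm {x y : N4} (hx : qd x = 1) (hy : qd y = 1) : qd (nm x y) = 1 :=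
  qd_canon (qd_qm hx hy)

theorem qm_lt (x y : N4) : (qm x y).1 < 7 ∧ (qm x y).2.1 < 7 ∧ (qm x y).2.2.1 < 7 ∧ (qm x y).2.2.2 < 7 := by
  unfold qm
  exact ⟨Nat.mod_lt _ (by norm_num), Nat.mod_lt _ (by norm_num), Nat.mod_lt _ (by norm_num), Nat.mod_lt _ (by norm_num)⟩

theorem canon_mem' {z : N4} (hz : qd z = 1) (h1 : z.1 < 7) (h2 : z.2.1 < 7) (h3 : z.2.2.1 < 7) (h4 : z.2.2.2 < 7) :
    canon z ∈ all :=
  canon_mem ⟨z.1, h1⟩ ⟨z.2.1, h2⟩ ⟨z.2.2.1, h3⟩ ⟨z.2.2.2, h4⟩ hz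

theorem nm_mem {x y : N4} (hx : x ∈ all) (hy : y ∈ all) : nm x y ∈ all := by
  obtain ⟨a, b, c, d⟩ := qm_lt x y
  exact canon_mem' (qd_qm (all_spec x hx).1 (all_spec y hy).1) a b c d

theorem npw_mem {x : N4} (hx : x ∈ all) (k : ℕ) : npw x k ∈ all := by
  induction k with
  | zero => exact one_mem
  | succ k ih => exact nm_mem ih hx

theorem cj_mem {c y : N4} (hc : c ∈ all) (hy : y ∈ all) : cj c y ∈ all :=
  nm_mem (nm_mem hc hy) (ninv_mem c hc)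

/-- A parametrization of `G` by the explicit model. -/
structure Rep (G : Type*) [Group G] where
  E : N4 → G
  E_mul : ∀ x y, qd x = 1 → qd y = 1 → E (qm x y) = E x * E y
  E_neg : ∀ x, qd x = 1 → E (qn x) = E x
  E_inj : ∀ x y, x ∈ all → y ∈ all → E x = E y → x = y
  E_surj : ∀ g, ∃ x ∈ all, E x = g

section bridge

variable {G : Type*} [Group G]

theorem toM_det {x : N4} (h : qd x = 1) : (toM x).det = 1 := (qd_eq_one_iff x).1 h

noncomputable def toSL (x : N4) (h : qd x = 1) : SL7 := ⟨toM x, toM_det h⟩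

noncomputable def repE (π : SL7 →* G) (x : N4) : G := if h : qd x = 1 then π (toSL x h) else 1

theorem repE_of (π : SL7 →* G) {x : N4} (h : qd x = 1) : repE π x = π (toSL x h) := by
  simp [repE, h]

/-- The element `-1`. -/
def minusOne : SL7 := ⟨!![6, 0; 0, 6], by decide +kernel⟩

theorem minusOne_mem : minusOne ∈ Subgroup.center SL7 := by
  rw [Matrix.SpecialLinearGroup.mem_center_iff]
  refine ⟨-1, by decide +kernel, ?_⟩
  ext i j
  fin_cases i <;> fin_cases j <;> simp [minusOne, six_eq]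

theorem minusOne_mul_toSL (x : N4) (h : qd x = 1) : minusOne * toSL x h = toSL (qn x) (qd_qn h) := by
  apply Subtype.ext
  show (!![6, 0; 0, 6] : Matrix (Fin 2) (Fin 2) (ZMod 7)) * toM x = toM (qn x)
  rw [toM_neg, six_eq]
  ext i j
  fin_cases i <;> fin_cases j <;> simp [toM, Matrix.mul_apply, Fin.sum_univ_two]

theorem toM_entry_eq {x y : N4} (hx : x.1 < 7 ∧ x.2.1 < 7 ∧ x.2.2.1 < 7 ∧ x.2.2.2 < 7)
    (hy : y.1 < 7 ∧ y.2.1 < 7 ∧ y.2.2.1 < 7 ∧ y.2.2.2 < 7) (h : toM x = toM y) : x = y := by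
  have h00 := congrFun (congrFun h 0) 0
  have h01 := congrFun (congrFun h 0) 1
  have h10 := congrFun (congrFun h 1) 0
  have h11 := congrFun (congrFun h 1) 1
  simp only [toM, Matrix.of_apply, Matrix.cons_val_zero, Matrix.cons_val_one, Matrix.cons_val',
    Matrix.cons_val_fin_one] at h00 h01 h10 h11
  rw [ZMod.natCast_eq_natCast_iff'] at h00 h01 h10 h11
  obtain ⟨x1, x2, x3, x4⟩ := x
  obtain ⟨y1, y2, y3, y4⟩ := y
  obtain ⟨a1, a2, a3, a4⟩ := hx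
  obtain ⟨b1, b2, b3, b4⟩ := hy
  simp only at *
  rw [Nat.mod_eq_of_lt a1, Nat.mod_eq_of_lt b1] at h00
  rw [Nat.mod_eq_of_lt a2, Nat.mod_eq_of_lt b2] at h01
  rw [Nat.mod_eq_of_lt a3, Nat.mod_eq_of_lt b3] at h10
  rw [Nat.mod_eq_of_lt a4, Nat.mod_eq_of_lt b4] at h11
  subst h00 h01 h10 h11
  rfl

theorem qn_lt {y : N4} : (qn y).1 < 7 ∧ (qn y).2.1 < 7 ∧ (qn y).2.2.1 < 7 ∧ (qn y).2.2.2 < 7 := by
  unfold qn
  exact ⟨Nat.mod_lt _ (by norm_num), Nat.mod_lt _ (by norm_num), Nat.mod_lt _ (by norm_num), Nat.mod_lt _ (by norm_num)⟩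

theorem sq_eq_one_zmod : ∀ r : ZMod 7, r ^ 2 = 1 → r = 1 ∨ r = -1 := by decide +kernel

/-- Build the parametrization from a surjection of `SL₂(7)` whose kernel is the center. -/
noncomputable def repOf (π : SL7 →* G) (hsurj : Function.Surjective π)
    (hker : ∀ A, π A = 1 ↔ A ∈ Subgroup.center SL7) : Rep G where
  E := repE π
  E_mul := by
    intro x y hx hy
    rw [repE_of π hx, repE_of π hy, repE_of π (qd_qm hx hy), ← map_mul]
    congr 1
    apply Subtype.ext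
    exact toM_mul x y
  E_neg := by
    intro x hx
    rw [repE_of π hx, repE_of π (qd_qn hx), ← minusOne_mul_toSL x hx, map_mul, (hker _).2 minusOne_mem, one_mul]
  E_inj := by
    intro x y hx hy h
    have hdx := (all_spec x hx).1
    have hdy := (all_spec y hy).1
    rw [repE_of π hdx, repE_of π hdy] at h
    have h1 : (toSL x hdx)⁻¹ * toSL y hdy ∈ Subgroup.center SL7 := by
      rw [← hker, map_mul, map_inv, h, inv_mul_cancel]
    rw [Matrix.SpecialLinearGroup.mem_center_iff] at h1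
    obtain ⟨r, hr, hr2⟩ := h1
    have hr' : r ^ 2 = 1 := by simpa using hr
    have hyx : toM y = r • toM x := by
      have h2 : (toSL y hdy) = (toSL x hdx) * ((toSL x hdx)⁻¹ * toSL y hdy) := by group
      have h3 : toM y = toM x * (((toSL x hdx)⁻¹ * toSL y hdy : SL7) : Matrix (Fin 2) (Fin 2) (ZMod 7)) := by
        conv_lhs => rw [show toM y = ((toSL y hdy : SL7) : Matrix (Fin 2) (Fin 2) (ZMod 7)) from rfl, h2]
        rfl
      rw [h3, ← hr2]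
      ext i j
      fin_cases i <;> fin_cases j <;> simp [Matrix.mul_apply, Fin.sum_univ_two, mul_comm]
    rcases sq_eq_one_zmod r hr' with rfl | rfl
    · rw [one_smul] at hyx
      exact (toM_entry_eq (all_spec y hy).2 (all_spec x hx).2 hyx).symm
    · exfalso
      have h4 : toM y = toM (qn x) := by rw [toM_neg, hyx]; simp
      have := toM_entry_eq (all_spec y hy).2 qn_lt h4
      exact qn_not_mem x hx (this ▸ hy)
  E_surj := by
    intro g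
    obtain ⟨A, rfl⟩ := hsurj g
    let a := A 0 0
    let b := A 0 1
    let c := A 1 0
    let d := A 1 1
    let z : N4 := (a.val, b.val, c.val, d.val)
    have hzM : toM z = A.1 := by
      ext i j
      fin_cases i <;> fin_cases j <;> simp [toM, z, a, b, c, d]
    have hz : qd z = 1 := by
      rw [qd_eq_one_iff, hzM]
      exact A.2
    have hmem : canon z ∈ all := canon_mem' hz (ZMod.val_lt a) (ZMod.val_lt b) (ZMod.val_lt c) (ZMod.val_lt d)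
    refine ⟨canon z, hmem, ?_⟩
    have h1 : repE π z = π A := by
      rw [repE_of π hz]
      congr 1
      exact Subtype.ext hzM
    rcases canon_eq z with h | h
    · rw [h, h1]
    · rw [h, ← h1, repE_of π (qd_qn hz), repE_of π hz, ← minusOne_mul_toSL z hz, map_mul, (hker _).2 minusOne_mem, one_mul]

end bridge

/-- Every simple group of order 168 has a parametrization by the explicit model. -/
theorem exists_rep {G : Type*} [Group G] [Finite G] [IsSimpleGroup G] (h : Nat.card G = 168) : Nonempty (Rep G) := by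
  obtain ⟨e⟩ := psl_rec_7 h
  let π : SL7 →* G := e.symm.toMonoidHom.comp
    (QuotientGroup.mk' (Subgroup.center SL7))
  refine ⟨repOf π ?_ ?_⟩
  · intro g
    obtain ⟨q, hq⟩ := QuotientGroup.mk'_surjective (Subgroup.center SL7) (e g)
    refine ⟨q, ?_⟩
    show e.symm (QuotientGroup.mk' (Subgroup.center SL7) q) = g
    rw [hq]
    simp
  · intro A
    simp [π]

end Cfsg.Agent.Lib.PslRec.M168
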