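import Mathlib
import Cfsg.Agent.Lib.PslRec.M168
import Cfsg.Agent.Lib.SmallSimple.Conj
import Cfsg.Agent.Lib.SmallSimple.Count

set_option autoImplicit false

namespace Cfsg.Agent.Lib.PslRec.M168

/-- The order of an element of the model. -/
def ord (x : N4) : ℕ :=
  if x = one then 1 else if nm x x = one then 2 else if npw x 3 = one then 3
  else if npw x 4 = one then 4 else if npw x 7 = one then 7 else 0

theorem ord_spec : ∀ x ∈ all, ord x = 1 ∨ ord x = 2 ∨ ord x = 3 ∨ ord x = 4 ∨ ord x = 7 := by decide +kernel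

namespace Rep

variable {G : Type*} [Group G] (R : Rep G)

theorem E_canon {x : N4} (hx : qd x = 1) : R.E (canon x) = R.E x := by
  rcases canon_eq x with h | h <;> rw [h]
  exact R.E_neg x hx

theorem E_nm {x y : N4} (hx : x ∈ all) (hy : y ∈ all) : R.E (nm x y) = R.E x * R.E y := by
  have h1 := (all_spec x hx).1
  have h2 := (all_spec y hy).1
  unfold nm
  rw [R.E_canon (qd_qm h1 h2), R.E_mul x y h1 h2]

theorem qm_one_one : qm one one = one := by decide +kernel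

theorem E_one : R.E one = 1 := by
  have h : R.E (qm one one) = R.E one * R.E one := R.E_mul _ _ (by decide +kernel) (by decide +kernel)
  rw [qm_one_one] at h
  exact (mul_eq_left.mp h.symm)

theorem E_ninv {x : N4} (hx : x ∈ all) : R.E (ninv x) = (R.E x)⁻¹ := by
  have h := R.E_nm hx (ninv_mem x hx)
  rw [mul_ninv x hx, R.E_one] at h
  exact (inv_eq_of_mul_eq_one_right h.symm).symm

theorem E_npw {x : N4} (hx : x ∈ all) (k : ℕ) : R.E (npw x k) = R.E x ^ k := by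
  induction k with
  | zero => simp [npw, R.E_one]
  | succ k ih =>
    show R.E (nm (npw x k) x) = _
    rw [R.E_nm (npw_mem hx k) hx, ih, pow_succ]

theorem E_cj {c y : N4} (hc : c ∈ all) (hy : y ∈ all) : R.E (cj c y) = R.E c * R.E y * (R.E c)⁻¹ := by
  unfold cj
  rw [R.E_nm (nm_mem hc hy) (ninv_mem c hc), R.E_nm hc hy, R.E_ninv hc]

theorem E_eq_iff {x y : N4} (hx : x ∈ all) (hy : y ∈ all) : R.E x = R.E y ↔ x = y :=
  ⟨R.E_inj x y hx hy, fun h => h ▸ rfl⟩

theorem E_eq_one_iff {x : N4} (hx : x ∈ all) : R.E x = 1 ↔ x = one := by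
  rw [← R.E_one, R.E_eq_iff hx one_mem]

theorem orderOf_E {x : N4} (hx : x ∈ all) : orderOf (R.E x) = ord x := by
  have hspec := ord_spec x hx
  unfold ord at hspec ⊢
  by_cases h1 : x = one
  · simp [h1, R.E_one]
  rw [if_neg h1] at hspec ⊢
  have hne : R.E x ≠ 1 := fun h => h1 ((R.E_eq_one_iff hx).1 h)
  by_cases h2 : nm x x = one
  · rw [if_pos h2]
    apply orderOf_eq_prime (p := 2) _ hne
    rw [pow_two, ← R.E_nm hx hx, h2, R.E_one]
  rw [if_neg h2] at hspec ⊢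
  by_cases h3 : npw x 3 = one
  · rw [if_pos h3]
    haveI : Fact (Nat.Prime 3) := ⟨by norm_num⟩
    apply orderOf_eq_prime (p := 3) _ hne
    rw [← R.E_npw hx, h3, R.E_one]
  rw [if_neg h3] at hspec ⊢
  by_cases h4 : npw x 4 = one
  · rw [if_pos h4]
    have h5 : ¬ R.E x ^ 2 ^ 1 = 1 := by
      intro h
      apply h2
      rw [← R.E_eq_one_iff (nm_mem hx hx), R.E_nm hx hx, ← pow_two]
      simpa using h
    have h6 : R.E x ^ 2 ^ (1 + 1) = 1 := by
      rw [show (2 : ℕ) ^ (1 + 1) = 4 by norm_num, ← R.E_npw hx, h4, R.E_one]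
    simpa using orderOf_eq_prime_pow h5 h6
  rw [if_neg h4] at hspec ⊢
  by_cases h7 : npw x 7 = one
  · rw [if_pos h7]
    haveI : Fact (Nat.Prime 7) := ⟨by norm_num⟩
    apply orderOf_eq_prime (p := 7) _ hne
    rw [← R.E_npw hx, h7, R.E_one]
  · rw [if_neg h7] at hspec
    omega

theorem card_of_list (l : List N4) (hl : ∀ x ∈ l, x ∈ all) (hnd : l.Nodup) (P : G → Prop)
    (hP : ∀ x ∈ all, P (R.E x) ↔ x ∈ l) : Nat.card {g // P g} = l.length := by
  let f : {x // x ∈ l} → {g // P g} := fun x => ⟨R.E x.1, (hP _ (hl _ x.2)).2 x.2⟩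
  have hbij : Function.Bijective f := by
    constructor
    · rintro ⟨x, hx⟩ ⟨y, hy⟩ h
      apply Subtype.ext
      exact R.E_inj x y (hl x hx) (hl y hy) (congrArg Subtype.val h)
    · rintro ⟨g, hg⟩
      obtain ⟨x, hx, rfl⟩ := R.E_surj g
      exact ⟨⟨x, (hP x hx).1 hg⟩, rfl⟩
  rw [← Nat.card_congr (Equiv.ofBijective f hbij)]
  rw [Nat.subtype_card l.toFinset (by simp), List.toFinset_card_of_nodup hnd]

theorem card_filter (p : N4 → Prop) [DecidablePred p] (P : G → Prop)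
    (hP : ∀ x ∈ all, P (R.E x) ↔ p x) : Nat.card {g // P g} = (all.filter (fun x => decide (p x))).length := by
  apply R.card_of_list _ (fun x hx => (List.mem_filter.1 hx).1) (all_nodup.filter _)
  intro x hx
  rw [hP x hx, List.mem_filter]
  simp [hx]

theorem isConj_E {c x y : N4} (hc : c ∈ all) (hx : x ∈ all) (h : cj c x = y) : IsConj (R.E x) (R.E y) := by
  rw [isConj_iff]
  refine ⟨R.E c, ?_⟩
  rw [← h, R.E_cj hc hx]

theorem isConj_E_iff {x y : N4} (hx : x ∈ all) (hy : y ∈ all) :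
    IsConj (R.E x) (R.E y) ↔ ∃ c ∈ all, cj c x = y := by
  constructor
  · intro h
    rw [isConj_iff] at h
    obtain ⟨g, hg⟩ := h
    obtain ⟨c, hc, rfl⟩ := R.E_surj g
    refine ⟨c, hc, ?_⟩
    rw [← R.E_eq_iff (cj_mem hc hx) hy, R.E_cj hc hx, hg]
  · rintro ⟨c, hc, h⟩
    exact R.isConj_E hc hx h

theorem card_centralizer {x : N4} (hx : x ∈ all) :
    Nat.card (Subgroup.centralizer ({R.E x} : Set G)) = (all.filter (fun c => decide (nm c x = nm x c))).length := by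
  apply R.card_filter (fun c => nm c x = nm x c) (fun g => g ∈ Subgroup.centralizer ({R.E x} : Set G))
  intro c hc
  rw [Subgroup.mem_centralizer_singleton_iff, ← R.E_nm hc hx, ← R.E_nm hx hc, R.E_eq_iff (nm_mem hc hx) (nm_mem hx hc)]

/-- list data for subgroups -/
def SubOK (l : List N4) : Prop :=
  one ∈ l ∧ (∀ x ∈ l, x ∈ all) ∧ (∀ x ∈ l, ∀ y ∈ l, nm x y ∈ l) ∧ (∀ x ∈ l, ninv x ∈ l)

instance (l : List N4) : Decidable (SubOK l) := by unfold SubOK; infer_instance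

/-- The subgroup with a given list of elements. -/
def sub (l : List N4) (h : SubOK l) : Subgroup G where
  carrier := {g | ∃ x ∈ l, R.E x = g}
  mul_mem' := by
    rintro _ _ ⟨x, hx, rfl⟩ ⟨y, hy, rfl⟩
    exact ⟨nm x y, h.2.2.1 x hx y hy, R.E_nm (h.2.1 x hx) (h.2.1 y hy)⟩
  one_mem' := ⟨one, h.1, R.E_one⟩
  inv_mem' := by
    rintro _ ⟨x, hx, rfl⟩
    exact ⟨ninv x, h.2.2.2 x hx, R.E_ninv (h.2.1 x hx)⟩

theorem mem_sub {l : List N4} {h : SubOK l} {x : N4} (hx : x ∈ all) : R.E x ∈ R.sub l h ↔ x ∈ l := by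
  constructor
  · rintro ⟨y, hy, hxy⟩
    rwa [← R.E_inj y x (h.2.1 y hy) hx hxy]
  · intro hl
    exact ⟨x, hl, rfl⟩

theorem card_sub {l : List N4} (h : SubOK l) (hnd : l.Nodup) : Nat.card (R.sub l h) = l.length :=
  R.card_of_list l h.2.1 hnd (fun g => g ∈ R.sub l h) (fun _ hx => R.mem_sub hx)

theorem forall_E {P : G → Prop} (h : ∀ x ∈ all, P (R.E x)) (g : G) : P g := by
  obtain ⟨x, hx, rfl⟩ := R.E_surj g
  exact h x hx

end Rep

/-! Data: the Sylow 2-subgroup, its two Klein subgroups and their normalizers. -/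
def x2 : N4 := (1,5,1,6)
def x3 : N4 := (1,3,6,5)
def x4 : N4 := (0,1,6,3)
def x7 : N4 := (0,1,6,2)
def lT : List N4 := [(1,0,0,1),(0,1,6,3),(1,4,3,6),(3,6,1,0),(1,5,1,6),(2,2,1,5),(2,6,5,5),(1,6,2,6)]
def lV1 : List N4 := [(1,0,0,1),(1,4,3,6),(1,5,1,6),(2,6,5,5)]
def lV2 : List N4 := [(1,0,0,1),(1,4,3,6),(2,2,1,5),(1,6,2,6)]
def lN1 : List N4 := [(0,1,6,3),(0,2,3,0),(0,3,2,3),(1,0,0,1),(1,1,5,6),(1,2,4,2),(1,3,6,5),(1,4,3,6),(1,5,1,6),(1,6,2,6),(2,0,2,4),(2,1,0,4),(2,2,1,5),(2,3,6,6),(2,4,4,5),(2,5,3,1),(2,6,5,5),(3,0,2,5),(3,1,0,5),(3,2,4,3),(3,3,6,4),(3,4,5,0),(3,5,3,3),(3,6,1,0)]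
def lN2 : List N4 := [(0,1,6,3),(0,2,3,4),(0,3,2,0),(1,0,0,1),(1,1,4,5),(1,2,6,6),(1,3,5,2),(1,4,3,6),(1,5,1,6),(1,6,2,6),(2,0,6,4),(2,1,4,6),(2,2,1,5),(2,3,3,5),(2,4,2,1),(2,5,0,4),(2,6,5,5),(3,0,6,5),(3,1,4,4),(3,2,3,0),(3,3,5,3),(3,4,2,3),(3,5,0,5),(3,6,1,0)]

theorem x2_mem : x2 ∈ all := by decide +kernel
theorem x3_mem : x3 ∈ all := by decide +kernel
theorem x4_mem : x4 ∈ all := by decide +kernel
theorem x7_mem : x7 ∈ all := by decide +kernel
theorem ninv_x7_mem : ninv x7 ∈ all := by decide +kernel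

theorem count_orders :
    (all.filter (fun x => decide (ord x = 2))).length = 21 ∧
    (all.filter (fun x => decide (ord x = 3))).length = 56 ∧
    (all.filter (fun x => decide (ord x = 4))).length = 42 ∧
    (all.filter (fun x => decide (ord x = 7))).length = 48 := by decide +kernel

theorem conj2 : ∀ x ∈ all, ord x = 2 → ∃ c ∈ all, cj c x2 = x := by decide +kernel
theorem conj3 : ∀ x ∈ all, ord x = 3 → ∃ c ∈ all, cj c x3 = x := by decide +kernel
theorem conj4 : ∀ x ∈ all, ord x = 4 → ∃ c ∈ all, cj c x4 = x := by decide +kernel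
theorem conj7 : ∀ x ∈ all, ord x = 7 → (∃ c ∈ all, cj c x7 = x) ∨ (∃ c ∈ all, cj c (ninv x7) = x) := by decide +kernel
theorem ord_x2 : ord x2 = 2 := by decide +kernel
theorem ord_x3 : ord x3 = 3 := by decide +kernel
theorem ord_x4 : ord x4 = 4 := by decide +kernel
theorem ord_x7 : ord x7 = 7 := by decide +kernel
theorem ord_ninv_x7 : ord (ninv x7) = 7 := by decide +kernel
theorem not_conj7 : ∀ c ∈ all, cj c x7 ≠ ninv x7 := by decide +kernel
theorem not_conj7' : ∀ c ∈ all, cj c (ninv x7) ≠ x7 := by decide +kernel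
theorem cent7 : (all.filter (fun c => decide (nm c x7 = nm x7 c))).length = 7 := by decide +kernel
theorem cent7' : (all.filter (fun c => decide (nm c (ninv x7) = nm (ninv x7) c))).length = 7 := by decide +kernel
theorem cent2 : (all.filter (fun c => decide (nm c x2 = nm x2 c))).length = 8 := by decide +kernel

end Cfsg.Agent.Lib.PslRec.M168
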