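import Mathlib
import Cfsg.Agent.Lib.PslRec.M168Api
import Cfsg.Agent.Lib.SmallSimple.Sylow

set_option autoImplicit false

namespace Cfsg.Agent.Lib.PslRec.M168

theorem cent7_all : ∀ y ∈ all, ord y = 7 → (all.filter (fun c => decide (nm c y = nm y c))).length = 7 := by decide +kernel
theorem nc7_all : ∀ y ∈ all, ord y = 7 → ∀ c ∈ all, cj c y ≠ ninv y := by decide +kernel
theorem cent2_all : ∀ y ∈ all, ord y = 2 → (all.filter (fun c => decide (nm c y = nm y c))).length = 8 := by decide +kernel

namespace Rep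

variable {G : Type*} [Group G] (R : Rep G)
include R

theorem orders (g : G) : orderOf g = 1 ∨ orderOf g = 2 ∨ orderOf g = 3 ∨ orderOf g = 4 ∨ orderOf g = 7 := by
  obtain ⟨x, hx, rfl⟩ := R.E_surj g
  rw [R.orderOf_E hx]
  exact ord_spec x hx

theorem card_order (k : ℕ) : Nat.card {g : G // orderOf g = k} = (all.filter (fun x => decide (ord x = k))).length :=
  R.card_filter (fun x => ord x = k) _ (fun x hx => by rw [R.orderOf_E hx])

theorem card_order2 : Nat.card {g : G // orderOf g = 2} = 21 := by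
  rw [R.card_order]; exact count_orders.1
theorem card_order3 : Nat.card {g : G // orderOf g = 3} = 56 := by
  rw [R.card_order]; exact count_orders.2.1
theorem card_order4 : Nat.card {g : G // orderOf g = 4} = 42 := by
  rw [R.card_order]; exact count_orders.2.2.1
theorem card_order7 : Nat.card {g : G // orderOf g = 7} = 48 := by
  rw [R.card_order]; exact count_orders.2.2.2

theorem conj_of_order {k : ℕ} {r : N4} (hr : r ∈ all) (hc : ∀ x ∈ all, ord x = k → ∃ c ∈ all, cj c r = x)
    (s t : G) (hs : orderOf s = k) (ht : orderOf t = k) : IsConj s t := by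
  obtain ⟨x, hx, rfl⟩ := R.E_surj s
  obtain ⟨y, hy, rfl⟩ := R.E_surj t
  rw [R.orderOf_E hx] at hs
  rw [R.orderOf_E hy] at ht
  obtain ⟨c1, hc1, h1⟩ := hc x hx hs
  obtain ⟨c2, hc2, h2⟩ := hc y hy ht
  exact (R.isConj_E hc1 hr h1).symm.trans (R.isConj_E hc2 hr h2)

end Rep
end Cfsg.Agent.Lib.PslRec.M168
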