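import Mathlib
import Cfsg.Agent.Lib.PslRec.M168Facts

set_option autoImplicit false

namespace Cfsg.Agent.Lib.PslRec.M168

open Rep

def tb1 : List (N4 × N4) := [((2,3,1,0),(0,1,6,3)),((0,2,1,3),(0,2,3,0)),((3,0,1,2),(0,3,2,3)),((0,1,2,3),(1,0,0,1)),((2,1,0,3),(1,1,5,6)),((2,0,3,1),(1,2,4,2)),((0,3,1,2),(1,3,6,5)),((1,0,3,2),(1,4,3,6)),((2,3,0,1),(1,5,1,6)),((1,0,2,3),(1,6,2,6)),((3,1,0,2),(2,0,2,4)),((1,3,2,0),(2,1,0,4)),((0,1,3,2),(2,2,1,5)),((0,2,3,1),(2,3,6,6)),((0,3,2,1),(2,4,4,5)),((1,3,0,2),(2,5,3,1)),((3,2,1,0),(2,6,5,5)),((2,1,3,0),(3,0,2,5)),((3,0,2,1),(3,1,0,5)),((2,0,1,3),(3,2,4,3)),((3,1,2,0),(3,3,6,4)),((1,2,3,0),(3,4,5,0)),((1,2,0,3),(3,5,3,3)),((3,2,0,1),(3,6,1,0))]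
def tb2 : List (N4 × N4) := [((3,0,1,2),(0,1,6,3)),((2,3,1,0),(0,2,3,4)),((0,2,1,3),(0,3,2,0)),((0,1,2,3),(1,0,0,1)),((0,3,1,2),(1,1,4,5)),((1,0,2,3),(1,2,6,6)),((2,0,3,1),(1,3,5,2)),((2,3,0,1),(1,4,3,6)),((2,1,0,3),(1,5,1,6)),((1,0,3,2),(1,6,2,6)),((3,1,0,2),(2,0,6,4)),((0,2,3,1),(2,1,4,6)),((3,2,1,0),(2,2,1,5)),((0,1,3,2),(2,3,3,5)),((1,3,0,2),(2,4,2,1)),((1,3,2,0),(2,5,0,4)),((0,3,2,1),(2,6,5,5)),((2,1,3,0),(3,0,6,5)),((3,1,2,0),(3,1,4,4)),((3,2,0,1),(3,2,3,0)),((2,0,1,3),(3,3,5,3)),((1,2,0,3),(3,4,2,3)),((3,0,2,1),(3,5,0,5)),((1,2,3,0),(3,6,1,0))]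

def pkey (σ : Equiv.Perm (Fin 4)) : N4 := ((σ 0).val, (σ 1).val, (σ 2).val, (σ 3).val)
def F1 (σ : Equiv.Perm (Fin 4)) : N4 := (tb1.lookup (pkey σ)).getD one
def F2 (σ : Equiv.Perm (Fin 4)) : N4 := (tb2.lookup (pkey σ)).getD one

theorem lT_ok : SubOK lT := by decide +kernel
theorem lV1_ok : SubOK lV1 := by decide +kernel
theorem lV2_ok : SubOK lV2 := by decide +kernel
theorem lN1_ok : SubOK lN1 := by decide +kernel
theorem lN2_ok : SubOK lN2 := by decide +kernel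
theorem lT_nd : lT.Nodup := by decide +kernel
theorem lV1_nd : lV1.Nodup := by decide +kernel
theorem lV2_nd : lV2.Nodup := by decide +kernel
theorem lN1_nd : lN1.Nodup := by decide +kernel
theorem lN2_nd : lN2.Nodup := by decide +kernel
theorem lT_len : lT.length = 8 := by decide +kernel
theorem lV1_len : lV1.length = 4 := by decide +kernel
theorem lV2_len : lV2.length = 4 := by decide +kernel
theorem lN1_len : lN1.length = 24 := by decide +kernel
theorem lN2_len : lN2.length = 24 := by decide +kernel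
theorem lV1_ne : lV1 ≠ lV2 := by decide +kernel
theorem norm_T : ∀ c ∈ all, (∀ y ∈ lT, cj c y ∈ lT) → c ∈ lT := by decide +kernel
theorem norm_V1 : ∀ c ∈ all, (∀ y ∈ lV1, cj c y ∈ lV1) ↔ c ∈ lN1 := by decide +kernel
theorem norm_V2 : ∀ c ∈ all, (∀ y ∈ lV2, cj c y ∈ lV2) ↔ c ∈ lN2 := by decide +kernel
theorem V1_sq : ∀ c ∈ lV1, nm c c = one := by decide +kernel
theorem V2_sq : ∀ c ∈ lV2, nm c c = one := by decide +kernel
theorem V1_le : ∀ c ∈ lV1, c ∈ lT := by decide +kernel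
theorem V2_le : ∀ c ∈ lV2, c ∈ lT := by decide +kernel
theorem V1V2_ne : ∃ c ∈ lV1, c ∉ lV2 := by decide +kernel
theorem klein_chk : ∀ c ∈ lT, ∀ d ∈ lT, nm c c = one → nm d d = one → nm c d = nm d c → c ∈ lV1 ∨ d ∈ lV2 := by
  decide +kernel
theorem nc12 : ∀ c ∈ all, ¬ (∀ y ∈ lV1, cj c y ∈ lV2) := by decide +kernel
theorem nc21 : ∀ c ∈ all, ¬ (∀ y ∈ lV2, cj c y ∈ lV1) := by decide +kernel
theorem F1_mul : ∀ σ τ : Equiv.Perm (Fin 4), F1 (σ * τ) = nm (F1 σ) (F1 τ) := by decide +kernel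
theorem F2_mul : ∀ σ τ : Equiv.Perm (Fin 4), F2 (σ * τ) = nm (F2 σ) (F2 τ) := by decide +kernel
theorem F1_mem : ∀ σ : Equiv.Perm (Fin 4), F1 σ ∈ lN1 := by decide +kernel
theorem F2_mem : ∀ σ : Equiv.Perm (Fin 4), F2 σ ∈ lN2 := by decide +kernel
theorem F1_inj : ∀ σ τ : Equiv.Perm (Fin 4), F1 σ = F1 τ → σ = τ := by decide +kernel
theorem F2_inj : ∀ σ τ : Equiv.Perm (Fin 4), F2 σ = F2 τ → σ = τ := by decide +kernel
theorem F1_surj : ∀ x ∈ lN1, ∃ σ : Equiv.Perm (Fin 4), F1 σ = x := by decide +kernel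
theorem F2_surj : ∀ x ∈ lN2, ∃ σ : Equiv.Perm (Fin 4), F2 σ = x := by decide +kernel

/-- dihedral -/
def dm : DihedralGroup 4 → N4
  | .r i => npw x4 i.val
  | .sr i => nm x2 (npw x4 i.val)

theorem dm_mul : ∀ a b : DihedralGroup 4, dm (a * b) = nm (dm a) (dm b) := by decide +kernel
theorem dm_mem : ∀ a : DihedralGroup 4, dm a ∈ lT := by decide +kernel
theorem dm_inj : ∀ a b : DihedralGroup 4, dm a = dm b → a = b := by decide +kernel
theorem dm_surj : ∀ x ∈ lT, ∃ a : DihedralGroup 4, dm a = x := by decide +kernel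
theorem d4_center : ∀ a : DihedralGroup 4, a ≠ 1 → (∀ b, b * a = a * b) → a * a = 1 := by decide +kernel

namespace Rep

variable {G : Type*} [Group G] (R : Rep G)
include R

theorem mem_normalizer_E [Finite G] {l : List N4} {h : SubOK l} {c : N4} (hc : c ∈ all) :
    R.E c ∈ Subgroup.normalizer ((R.sub l h : Subgroup G) : Set G) ↔ ∀ y ∈ l, cj c y ∈ l := by
  constructor
  · intro hn y hy
    have h1 := (Subgroup.mem_normalizer_iff.1 hn (R.E y)).1 ((R.mem_sub (h.2.1 y hy)).2 hy)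
    rw [← R.E_cj hc (h.2.1 y hy)] at h1
    exact (R.mem_sub (cj_mem hc (h.2.1 y hy))).1 h1
  · intro hy
    apply Subgroup.mem_normalizer_fintype
    rintro n ⟨x, hx, rfl⟩
    rw [← R.E_cj hc (h.2.1 x hx)]
    exact (R.mem_sub (cj_mem hc (h.2.1 x hx))).2 (hy x hx)

theorem normalizer_sub [Finite G] {l l' : List N4} {h : SubOK l} {h' : SubOK l'}
    (hn : ∀ c ∈ all, (∀ y ∈ l, cj c y ∈ l) ↔ c ∈ l') :
    Subgroup.normalizer ((R.sub l h : Subgroup G) : Set G) = R.sub l' h' := by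
  ext g
  obtain ⟨c, hc, rfl⟩ := R.E_surj g
  rw [R.mem_normalizer_E hc, hn c hc, R.mem_sub hc]

/-- The explicit Sylow 2-subgroup. -/
def T0 : Subgroup G := R.sub lT lT_ok
def V1 : Subgroup G := R.sub lV1 lV1_ok
def V2 : Subgroup G := R.sub lV2 lV2_ok
def N1 : Subgroup G := R.sub lN1 lN1_ok
def N2 : Subgroup G := R.sub lN2 lN2_ok

theorem card_T0 : Nat.card R.T0 = 8 := by
  have := R.card_sub lT_ok lT_nd
  rwa [lT_len] at this
theorem card_V1 : Nat.card R.V1 = 4 := by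
  have := R.card_sub lV1_ok lV1_nd
  rwa [lV1_len] at this
theorem card_V2 : Nat.card R.V2 = 4 := by
  have := R.card_sub lV2_ok lV2_nd
  rwa [lV2_len] at this
theorem card_N1 : Nat.card R.N1 = 24 := by
  have := R.card_sub lN1_ok lN1_nd
  rwa [lN1_len] at this
theorem card_N2 : Nat.card R.N2 = 24 := by
  have := R.card_sub lN2_ok lN2_nd
  rwa [lN2_len] at this

theorem norm_V1_eq [Finite G] : Subgroup.normalizer ((R.V1 : Subgroup G) : Set G) = R.N1 :=
  R.normalizer_sub norm_V1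
theorem norm_V2_eq [Finite G] : Subgroup.normalizer ((R.V2 : Subgroup G) : Set G) = R.N2 :=
  R.normalizer_sub norm_V2

theorem norm_T0 [Finite G] : Subgroup.normalizer ((R.T0 : Subgroup G) : Set G) = R.T0 := by
  apply le_antisymm
  · intro g hg
    obtain ⟨c, hc, rfl⟩ := R.E_surj g
    rw [show R.T0 = R.sub lT lT_ok from rfl] at *
    rw [R.mem_normalizer_E hc] at hg
    exact (R.mem_sub hc).2 (norm_T c hc hg)
  · exact Subgroup.le_normalizer

theorem card_G (h : Nat.card G = 168) : (Nat.card G).factorization 2 = 3 := by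
  rw [h]
  exact Cfsg.Agent.Lib.SmallSimple.factorization_of_card (p := 2) (a := 3) (m := 21) (by norm_num) (by norm_num)

/-- The explicit Sylow 2-subgroup as a Sylow subgroup. -/
noncomputable def T0S [Finite G] (h : Nat.card G = 168) : Sylow 2 G :=
  Sylow.ofCard R.T0 (by rw [R.card_T0, R.card_G h]; norm_num)

@[simp] theorem coe_T0S [Finite G] (h : Nat.card G = 168) : ((R.T0S h : Sylow 2 G) : Subgroup G) = R.T0 := rfl

theorem exists_conj_T0 [Finite G] (h : Nat.card G = 168) (T : Sylow 2 G) :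
    ∃ g : G, (T : Subgroup G) = R.T0.map (MulAut.conj g).toMonoidHom := by
  obtain ⟨g, hg⟩ := MulAction.exists_smul_eq G (R.T0S h) T
  refine ⟨g, ?_⟩
  rw [← hg, Sylow.coe_subgroup_smul]
  rfl

theorem card_sylow2 [Finite G] (h : Nat.card G = 168) : Nat.card (Sylow 2 G) = 21 := by
  have h1 : Nat.card (Subgroup.normalizer ((R.T0 : Subgroup G) : Set G)) * Nat.card (Sylow 2 G) = Nat.card G :=
    Cfsg.Agent.Lib.SmallSimple.card_normalizer_mul_card_sylow 2 (R.T0S h)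
  rw [R.norm_T0, R.card_T0, h] at h1
  omega

theorem card_sylow3 [Finite G] (h : Nat.card G = 168) : Nat.card (Sylow 3 G) = 28 := by
  haveI : Fact (Nat.Prime 3) := ⟨by norm_num⟩
  have h1 := Cfsg.Agent.Lib.SmallSimple.card_orderOf_eq_prime (G := G) (p := 3) (fun P => by
    have := Cfsg.Agent.Lib.SmallSimple.sylow_card_of_eq (a := 1) (m := 56) P (by rw [h]; norm_num) (by norm_num)
    simpa using this)
  rw [R.card_order3] at h1
  omega

theorem card_sylow7 [Finite G] (h : Nat.card G = 168) : Nat.card (Sylow 7 G) = 8 := by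
  haveI : Fact (Nat.Prime 7) := ⟨by norm_num⟩
  have h1 := Cfsg.Agent.Lib.SmallSimple.card_orderOf_eq_prime (G := G) (p := 7) (fun P => by
    have := Cfsg.Agent.Lib.SmallSimple.sylow_card_of_eq (a := 1) (m := 24) P (by rw [h]; norm_num) (by norm_num)
    simpa using this)
  rw [R.card_order7] at h1
  omega

/-- The explicit Sylow 2-subgroup is dihedral. -/
theorem T0_dihedral : Nonempty (↥R.T0 ≃* DihedralGroup 4) := by
  let f : DihedralGroup 4 →* ↥R.T0 :=
    { toFun := fun a => ⟨R.E (dm a), (R.mem_sub ((lT_ok).2.1 _ (dm_mem a))).2 (dm_mem a)⟩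
      map_one' := by
        apply Subtype.ext
        show R.E (dm 1) = 1
        rw [show dm 1 = one by decide +kernel, R.E_one]
      map_mul' := by
        intro a b
        apply Subtype.ext
        show R.E (dm (a * b)) = R.E (dm a) * R.E (dm b)
        rw [dm_mul, R.E_nm ((lT_ok).2.1 _ (dm_mem a)) ((lT_ok).2.1 _ (dm_mem b))] }
  have hbij : Function.Bijective f := by
    constructor
    · intro a b hab
      have h1 : R.E (dm a) = R.E (dm b) := congrArg Subtype.val hab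
      exact dm_inj a b (R.E_inj _ _ ((lT_ok).2.1 _ (dm_mem a)) ((lT_ok).2.1 _ (dm_mem b)) h1)
    · rintro ⟨_, x, hx, rfl⟩
      obtain ⟨a, rfl⟩ := dm_surj x hx
      exact ⟨a, rfl⟩
  exact ⟨(MulEquiv.ofBijective f hbij).symm⟩

theorem sylow2_dihedral [Finite G] (h : Nat.card G = 168) (T : Sylow 2 G) :
    Nonempty (↥(T : Subgroup G) ≃* DihedralGroup 4) := by
  obtain ⟨e⟩ := R.T0_dihedral
  exact ⟨(Sylow.equiv T (R.T0S h)).trans e⟩

theorem card_sylow2_subgroup [Finite G] (h : Nat.card G = 168) (T : Sylow 2 G) : Nat.card (T : Subgroup G) = 8 := by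
  obtain ⟨e⟩ := R.sylow2_dihedral h T
  rw [Nat.card_congr e.toEquiv, DihedralGroup.nat_card]

theorem normalizer_sylow2 [Finite G] (h : Nat.card G = 168) (T : Sylow 2 G) :
    Subgroup.normalizer ((T : Subgroup G) : Set G) = T := by
  have h1 : Nat.card (Subgroup.normalizer ((T : Subgroup G) : Set G)) * Nat.card (Sylow 2 G) = Nat.card G :=
    Cfsg.Agent.Lib.SmallSimple.card_normalizer_mul_card_sylow 2 T
  rw [R.card_sylow2 h, h] at h1
  symm
  apply Subgroup.eq_of_le_of_card_ge Subgroup.le_normalizer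
  rw [R.card_sylow2_subgroup h]
  omega

theorem centralizer_of_order2 [Finite G] {T : Subgroup G} (hT : Nat.card T = 8) {z : G} (hz : orderOf z = 2)
    (hle : T ≤ Subgroup.centralizer ({z} : Set G)) : Subgroup.centralizer ({z} : Set G) = T := by
  obtain ⟨y, hy, rfl⟩ := R.E_surj z
  rw [R.orderOf_E hy] at hz
  symm
  apply Subgroup.eq_of_le_of_card_ge hle
  rw [R.card_centralizer hy, cent2_all y hy hz, hT]

end Rep
end Cfsg.Agent.Lib.PslRec.M168
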