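import Mathlib
import Cfsg.Agent.Lib.PslRec.M168Sylow
import Cfsg.Agent.Lib.SmallSimple.Basic

set_option autoImplicit false

namespace Cfsg.Agent.Lib.PslRec.M168

open Rep

section cm

variable {G : Type*} [Group G]

/-- The conjugate subgroup. -/
abbrev cm (g : G) (U : Subgroup G) : Subgroup G := U.map (MulAut.conj g).toMonoidHom

theorem cm_cm (a b : G) (U : Subgroup G) : cm a (cm b U) = cm (a * b) U := by
  ext x
  simp [Subgroup.mem_map, MulAut.conj_apply, mul_assoc]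

theorem cm_one (U : Subgroup G) : cm (1 : G) U = U := by
  ext x
  simp [Subgroup.mem_map, MulAut.conj_apply]

theorem cm_inv (g : G) (U : Subgroup G) : cm g⁻¹ (cm g U) = U := by
  rw [cm_cm, inv_mul_cancel, cm_one]

theorem cm_inv' (g : G) (U : Subgroup G) : cm g (cm g⁻¹ U) = U := by
  rw [cm_cm, mul_inv_cancel, cm_one]

theorem cm_le (g : G) {U V : Subgroup G} (h : U ≤ V) : cm g U ≤ cm g V := Subgroup.map_mono h

theorem card_cm (g : G) (U : Subgroup G) : Nat.card (cm g U) = Nat.card U :=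
  Subgroup.card_map_of_injective (MulAut.conj g).injective

/-- conjugation iso -/
def isoCm (g : G) (U : Subgroup G) : ↥U ≃* ↥(cm g U) := (MulAut.conj g).subgroupMap U

theorem klein_cm (g : G) (U : Subgroup G) [h : IsKleinFour U] : IsKleinFour (cm g U) where
  card_four := by rw [card_cm]; exact h.card_four
  exponent_two := by rw [← Monoid.exponent_eq_of_mulEquiv (isoCm g U)]; exact h.exponent_two

theorem normalizer_cm (g : G) (U : Subgroup G) :
    Subgroup.normalizer ((cm g U : Subgroup G) : Set G) = cm g (Subgroup.normalizer (U : Set G)) :=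
  (Subgroup.map_equiv_normalizer_eq U (MulAut.conj g)).symm

theorem klein_facts (U : Subgroup G) [h : IsKleinFour U] {a b : G} (ha : a ∈ U) (hb : b ∈ U) :
    a * a = 1 ∧ a * b = b * a := by
  constructor
  · exact congrArg Subtype.val (IsKleinFour.mul_self (⟨a, ha⟩ : U))
  · exact congrArg Subtype.val (mul_comm_of_exponent_two h.exponent_two (⟨a, ha⟩ : U) (⟨b, hb⟩ : U))

theorem coatom_eq {M K : Subgroup G} (hM : IsCoatom M) (hle : M ≤ K) (hK : K ≠ ⊤) : M = K := by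
  by_contra hne
  exact hK (hM.2 K (lt_of_le_of_ne hle hne))

theorem le_normalizer_of_normal (M : Subgroup G) (A : Subgroup M) [hA : A.Normal] :
    M ≤ Subgroup.normalizer ((A.map M.subtype : Subgroup G) : Set G) := by
  intro m hm
  rw [Subgroup.mem_normalizer_iff]
  intro x
  constructor
  · rintro ⟨y, hy, rfl⟩
    exact ⟨⟨m, hm⟩ * y * (⟨m, hm⟩ : M)⁻¹, hA.conj_mem y hy _, by simp⟩
  · rintro ⟨y, hy, hxy⟩
    refine ⟨(⟨m, hm⟩ : M)⁻¹ * y * (⟨m, hm⟩ : M), ?_, ?_⟩
    · have := hA.conj_mem y hy (⟨m, hm⟩ : M)⁻¹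
      simpa using this
    · simp only [Subgroup.coe_subtype, Subgroup.coe_mul, Subgroup.coe_inv] at hxy ⊢
      rw [hxy]
      group

/-- A normal Sylow subgroup when the index is small. -/
theorem normal_sylow_of_small {M : Type*} [Group M] [Finite M] {p k : ℕ} [hp : Fact p.Prime]
    (hc : Nat.card M = p * k) (hk : ¬ p ∣ k) (hkp : k ≤ p) (P : Sylow p M) : (P : Subgroup M).Normal := by
  have hcard : Nat.card (P : Subgroup M) = p := by
    have := Cfsg.Agent.Lib.SmallSimple.sylow_card_of_eq (a := 1) (m := k) P (by rw [hc, pow_one]) hk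
    simpa using this
  have hidx : (P : Subgroup M).index = k := by
    have := Subgroup.card_mul_index (P : Subgroup M)
    rw [hcard, hc] at this
    exact Nat.eq_of_mul_eq_mul_left hp.out.pos this
  have h1 : Nat.card (Sylow p M) ∣ k := hidx ▸ Sylow.card_dvd_index P
  have h2 := card_sylow_modEq_one p M
  have hk0 : 0 < k := Nat.pos_of_ne_zero (by rintro rfl; exact hk (dvd_zero p))
  have hle := Nat.le_of_dvd hk0 h1
  have hpos : 0 < Nat.card (Sylow p M) := Nat.card_pos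
  have h3 : Nat.card (Sylow p M) = 1 := by
    by_contra hne
    have hlt : Nat.card (Sylow p M) < p ∨ Nat.card (Sylow p M) = p := by omega
    rcases hlt with hlt | heq
    · have h4 := h2
      unfold Nat.ModEq at h4
      rw [Nat.mod_eq_of_lt hlt, Nat.mod_eq_of_lt hp.out.one_lt] at h4
      exact hne h4
    · rw [heq] at h1
      exact hk h1
  haveI : Subsingleton (Sylow p M) := (Nat.card_eq_one_iff_unique.1 h3).1
  exact Sylow.normal_of_subsingleton P

end cm

def lQ3 : List N4 := [(1,0,0,1),(1,3,6,5),(2,3,6,6)]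
def lNQ3 : List N4 := [(0,2,3,0),(1,0,0,1),(1,3,6,5),(2,2,1,5),(2,3,6,6),(2,4,4,5)]

theorem lQ3_ok : SubOK lQ3 := by decide +kernel
theorem lNQ3_ok : SubOK lNQ3 := by decide +kernel
theorem lQ3_nd : lQ3.Nodup := by decide +kernel
theorem lQ3_len : lQ3.length = 3 := by decide +kernel
theorem norm_Q3 : ∀ c ∈ all, (∀ y ∈ lQ3, cj c y ∈ lQ3) ↔ c ∈ lNQ3 := by decide +kernel
theorem NQ3_le : ∀ c ∈ lNQ3, c ∈ lN1 := by decide +kernel
theorem T_le_N1 : ∀ c ∈ lT, c ∈ lN1 := by decide +kernel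
theorem T_le_N2 : ∀ c ∈ lT, c ∈ lN2 := by decide +kernel
theorem chk3 : ∀ y ∈ all, ord y = 3 → y ∈ lN1 ∨ y ∈ lN2 ∨ ∃ t ∈ lT, ord (nm t y) = 7 := by decide +kernel
theorem chk34 : ∀ a ∈ all, ord a = 3 → ∀ b ∈ all, ord b = 4 → cj a b ≠ b ∧ cj a b ≠ ninv b := by decide +kernel
theorem ncN : ∀ c ∈ all, ¬ (∀ y ∈ lN1, cj c y ∈ lN2) := by decide +kernel

namespace Rep

variable {G : Type*} [Group G] (R : Rep G)
include R

theorem klein_of_list {l : List N4} (h : SubOK l) (hnd : l.Nodup) (hlen : l.length = 4)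
    (hsq : ∀ c ∈ l, nm c c = one) : IsKleinFour (R.sub l h) where
  card_four := by rw [R.card_sub h hnd, hlen]
  exponent_two := by
    have hc : Nat.card (R.sub l h) = 4 := by rw [R.card_sub h hnd, hlen]
    haveI : Finite (R.sub l h) := Nat.finite_of_card_ne_zero (by omega)
    haveI : Nontrivial (R.sub l h) := Finite.one_lt_card_iff_nontrivial.1 (by omega)
    rw [Monoid.exponent_eq_prime_iff Nat.prime_two]
    rintro ⟨g, x, hx, rfl⟩ hg
    apply orderOf_eq_prime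
    · apply Subtype.ext
      show (R.E x) ^ 2 = 1
      rw [pow_two, ← R.E_nm (h.2.1 x hx) (h.2.1 x hx), hsq x hx, R.E_one]
    · exact hg

theorem klein_V1 : IsKleinFour R.V1 := R.klein_of_list lV1_ok lV1_nd lV1_len V1_sq
theorem klein_V2 : IsKleinFour R.V2 := R.klein_of_list lV2_ok lV2_nd lV2_len V2_sq

theorem V1_le_T0 : R.V1 ≤ R.T0 := by
  rintro _ ⟨x, hx, rfl⟩
  exact ⟨x, V1_le x hx, rfl⟩
theorem V2_le_T0 : R.V2 ≤ R.T0 := by
  rintro _ ⟨x, hx, rfl⟩
  exact ⟨x, V2_le x hx, rfl⟩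

theorem V1_ne_V2 : R.V1 ≠ R.V2 := by
  intro h
  obtain ⟨c, hc, hc2⟩ := V1V2_ne
  have h1 : R.E c ∈ R.V1 := ⟨c, hc, rfl⟩
  rw [h] at h1
  exact hc2 ((R.mem_sub (lV1_ok.2.1 c hc)).1 h1)

theorem klein_le_T0 [Finite G] {U : Subgroup G} (hU : U ≤ R.T0) [hK : IsKleinFour U] : U = R.V1 ∨ U = R.V2 := by
  by_cases hle : U ≤ R.V1
  · left
    exact Subgroup.eq_of_le_of_card_ge hle (by rw [R.card_V1, hK.card_four])
  · right
    obtain ⟨c, hcU, hc1⟩ := SetLike.not_le_iff_exists.1 hle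
    have hle2 : U ≤ R.V2 := by
      intro d hdU
      obtain ⟨c', hc', rfl⟩ := R.E_surj c
      obtain ⟨d', hd', rfl⟩ := R.E_surj d
      have h1 : c' ∈ lT := (R.mem_sub hc').1 (hU hcU)
      have h2 : d' ∈ lT := (R.mem_sub hd').1 (hU hdU)
      have h3 : c' ∉ lV1 := fun h => hc1 ((R.mem_sub hc').2 h)
      obtain ⟨h4, h5⟩ := klein_facts U hcU hdU
      obtain ⟨h6, -⟩ := klein_facts U hdU hdU
      have h7 : nm c' c' = one := by
        rw [← R.E_eq_one_iff (nm_mem hc' hc'), R.E_nm hc' hc', h4]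
      have h8 : nm d' d' = one := by
        rw [← R.E_eq_one_iff (nm_mem hd' hd'), R.E_nm hd' hd', h6]
      have h9 : nm c' d' = nm d' c' := by
        rw [← R.E_eq_iff (nm_mem hc' hd') (nm_mem hd' hc'), R.E_nm hc' hd', R.E_nm hd' hc', h5]
      rcases klein_chk c' h1 d' h2 h7 h8 h9 with h | h
      · exact absurd h h3
      · exact (R.mem_sub hd').2 h
    exact Subgroup.eq_of_le_of_card_ge hle2 (by rw [R.card_V2, hK.card_four])

theorem not_cm_V1 (c : G) : cm c R.V1 ≠ R.V2 := by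
  intro h
  obtain ⟨c', hc', rfl⟩ := R.E_surj c
  apply nc12 c' hc'
  intro y hy
  have hy' := lV1_ok.2.1 y hy
  have h1 : (MulAut.conj (R.E c')).toMonoidHom (R.E y) ∈ cm (R.E c') R.V1 :=
    Subgroup.mem_map_of_mem _ ((R.mem_sub hy').2 hy)
  rw [h] at h1
  have h2 : R.E (cj c' y) ∈ R.V2 := by
    rw [R.E_cj hc' hy']
    exact h1
  exact (R.mem_sub (cj_mem hc' hy')).1 h2

theorem not_cm_V2 (c : G) : cm c R.V2 ≠ R.V1 := by
  intro h
  obtain ⟨c', hc', rfl⟩ := R.E_surj c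
  apply nc21 c' hc'
  intro y hy
  have hy' := lV2_ok.2.1 y hy
  have h1 : (MulAut.conj (R.E c')).toMonoidHom (R.E y) ∈ cm (R.E c') R.V2 :=
    Subgroup.mem_map_of_mem _ ((R.mem_sub hy').2 hy)
  rw [h] at h1
  have h2 : R.E (cj c' y) ∈ R.V1 := by
    rw [R.E_cj hc' hy']
    exact h1
  exact (R.mem_sub (cj_mem hc' hy')).1 h2

theorem not_cm_N1 (c : G) : cm c R.N1 ≠ R.N2 := by
  intro h
  obtain ⟨c', hc', rfl⟩ := R.E_surj c
  apply ncN c' hc'
  intro y hy
  have hy' := lN1_ok.2.1 y hy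
  have h1 : (MulAut.conj (R.E c')).toMonoidHom (R.E y) ∈ cm (R.E c') R.N1 :=
    Subgroup.mem_map_of_mem _ ((R.mem_sub hy').2 hy)
  rw [h] at h1
  have h2 : R.E (cj c' y) ∈ R.N2 := by
    rw [R.E_cj hc' hy']
    exact h1
  exact (R.mem_sub (cj_mem hc' hy')).1 h2

theorem N1_iso : Nonempty (↥R.N1 ≃* Equiv.Perm (Fin 4)) := by
  let f : Equiv.Perm (Fin 4) →* ↥R.N1 :=
    { toFun := fun a => ⟨R.E (F1 a), ⟨F1 a, F1_mem a, rfl⟩⟩
      map_one' := by
        apply Subtype.ext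
        show R.E (F1 1) = 1
        rw [show F1 1 = one by decide +kernel, R.E_one]
      map_mul' := by
        intro a b
        apply Subtype.ext
        show R.E (F1 (a * b)) = R.E (F1 a) * R.E (F1 b)
        rw [F1_mul, R.E_nm (lN1_ok.2.1 _ (F1_mem a)) (lN1_ok.2.1 _ (F1_mem b))] }
  have hbij : Function.Bijective f := by
    constructor
    · intro a b hab
      have h1 : R.E (F1 a) = R.E (F1 b) := congrArg Subtype.val hab
      exact F1_inj a b (R.E_inj _ _ (lN1_ok.2.1 _ (F1_mem a)) (lN1_ok.2.1 _ (F1_mem b)) h1)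
    · rintro ⟨_, x, hx, rfl⟩
      obtain ⟨a, rfl⟩ := F1_surj x hx
      exact ⟨a, rfl⟩
  exact ⟨(MulEquiv.ofBijective f hbij).symm⟩

theorem N2_iso : Nonempty (↥R.N2 ≃* Equiv.Perm (Fin 4)) := by
  let f : Equiv.Perm (Fin 4) →* ↥R.N2 :=
    { toFun := fun a => ⟨R.E (F2 a), ⟨F2 a, F2_mem a, rfl⟩⟩
      map_one' := by
        apply Subtype.ext
        show R.E (F2 1) = 1
        rw [show F2 1 = one by decide +kernel, R.E_one]
      map_mul' := by
        intro a b
        apply Subtype.ext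
        show R.E (F2 (a * b)) = R.E (F2 a) * R.E (F2 b)
        rw [F2_mul, R.E_nm (lN2_ok.2.1 _ (F2_mem a)) (lN2_ok.2.1 _ (F2_mem b))] }
  have hbij : Function.Bijective f := by
    constructor
    · intro a b hab
      have h1 : R.E (F2 a) = R.E (F2 b) := congrArg Subtype.val hab
      exact F2_inj a b (R.E_inj _ _ (lN2_ok.2.1 _ (F2_mem a)) (lN2_ok.2.1 _ (F2_mem b)) h1)
    · rintro ⟨_, x, hx, rfl⟩
      obtain ⟨a, rfl⟩ := F2_surj x hx
      exact ⟨a, rfl⟩
  exact ⟨(MulEquiv.ofBijective f hbij).symm⟩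

/-- a Klein subgroup of a conjugate of the explicit Sylow subgroup -/
theorem klein_of_le_cm [Finite G] {U : Subgroup G} [hK : IsKleinFour U] {g : G} (hle : U ≤ cm g R.T0) :
    U = cm g R.V1 ∨ U = cm g R.V2 := by
  have h1 : cm g⁻¹ U ≤ R.T0 := by
    have := cm_le g⁻¹ hle
    rwa [cm_inv] at this
  haveI := klein_cm g⁻¹ U
  rcases R.klein_le_T0 h1 with h | h
  · left
    rw [← h, cm_inv']
  · right
    rw [← h, cm_inv']

theorem klein_card_two [Finite G] (h : Nat.card G = 168) (T : Sylow 2 G) :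
    Nat.card {U : Subgroup G // U ≤ (T : Subgroup G) ∧ IsKleinFour ↥U} = 2 := by
  obtain ⟨g, hg⟩ := R.exists_conj_T0 h T
  rw [Nat.card_eq_two_iff]
  haveI := R.klein_V1
  haveI := R.klein_V2
  refine ⟨⟨cm g R.V1, ?_, klein_cm g R.V1⟩, ⟨cm g R.V2, ?_, klein_cm g R.V2⟩, ?_, ?_⟩
  · rw [hg]; exact cm_le g R.V1_le_T0
  · rw [hg]; exact cm_le g R.V2_le_T0
  · intro h1
    have h2 : cm g R.V1 = cm g R.V2 := congrArg Subtype.val h1
    have h3 : R.V1 = R.V2 := by
      have := congrArg (cm g⁻¹) h2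
      rwa [cm_inv, cm_inv] at this
    exact R.V1_ne_V2 h3
  · ext ⟨U, hU, hK⟩
    simp only [Set.mem_insert_iff, Set.mem_singleton_iff, Set.mem_univ, iff_true, Subtype.mk.injEq]
    rw [hg] at hU
    exact R.klein_of_le_cm hU

theorem klein_not_conj [Finite G] (h : Nat.card G = 168) (T : Sylow 2 G) (U W : Subgroup G)
    (hU : U ≤ (T : Subgroup G)) (hW : W ≤ (T : Subgroup G)) (hKU : IsKleinFour ↥U) (hKW : IsKleinFour ↥W)
    (hne : U ≠ W) (c : G) : U.map (MulAut.conj c).toMonoidHom ≠ W := by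
  intro hc
  obtain ⟨g, hg⟩ := R.exists_conj_T0 h T
  rw [hg] at hU hW
  have key : ∀ (A B : Subgroup G), cm c (cm g A) = cm g B → cm (g⁻¹ * c * g) A = B := by
    intro A B h1
    have h2 := congrArg (cm g⁻¹) h1
    rw [cm_inv, cm_cm, cm_cm] at h2
    rw [← h2]
  rcases R.klein_of_le_cm hU with rfl | rfl <;> rcases R.klein_of_le_cm hW with rfl | rfl
  · exact hne rfl
  · exact R.not_cm_V1 _ (key _ _ hc)
  · exact R.not_cm_V2 _ (key _ _ hc)
  · exact hne rfl

theorem klein_norm_cm [Finite G] {g : G} : Nonempty (↥(Subgroup.normalizer ((cm g R.V1 : Subgroup G) : Set G)) ≃* Equiv.Perm (Fin 4)) ∧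
    Nonempty (↥(Subgroup.normalizer ((cm g R.V2 : Subgroup G) : Set G)) ≃* Equiv.Perm (Fin 4)) := by
  obtain ⟨e1⟩ := R.N1_iso
  obtain ⟨e2⟩ := R.N2_iso
  constructor
  · rw [normalizer_cm, R.norm_V1_eq]
    exact ⟨(isoCm g R.N1).symm.trans e1⟩
  · rw [normalizer_cm, R.norm_V2_eq]
    exact ⟨(isoCm g R.N2).symm.trans e2⟩

theorem exists_klein_eq [Finite G] (h : Nat.card G = 168) (U : Subgroup G) (hK : IsKleinFour ↥U) :
    ∃ g, U = cm g R.V1 ∨ U = cm g R.V2 := by
  have hp : IsPGroup 2 U := IsPGroup.of_card (n := 2) (by rw [hK.card_four]; norm_num)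
  obtain ⟨T, hT⟩ := hp.exists_le_sylow
  obtain ⟨g, hg⟩ := R.exists_conj_T0 h T
  rw [hg] at hT
  exact ⟨g, R.klein_of_le_cm hT⟩

theorem klein_normalizer [Finite G] (h : Nat.card G = 168) (U : Subgroup G) (hK : IsKleinFour ↥U) :
    Nonempty (↥(Subgroup.normalizer (U : Set G)) ≃* Equiv.Perm (Fin 4)) := by
  obtain ⟨g, rfl | rfl⟩ := R.exists_klein_eq h U hK
  · exact R.klein_norm_cm.1
  · exact R.klein_norm_cm.2

end Rep
end Cfsg.Agent.Lib.PslRec.M168
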