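import Mathlib
import Cfsg.Agent.Lib.PslRec.M168Max
import Cfsg.Agent.Lib.SmallSimple.Basic

set_option autoImplicit false

namespace Cfsg.Agent.Lib.PslRec.M168

open Rep

section aux

/-- In a group of order 12 whose Sylow 3-subgroup is not normal, the Sylow 2-subgroup is normal. -/
theorem order12_normal {M : Type*} [Group M] [Finite M] (hc : Nat.card M = 12) [Fact (Nat.Prime 3)]
    (P : Sylow 3 M) (hP : ¬ (P : Subgroup M).Normal) (W : Sylow 2 M) : (W : Subgroup M).Normal := by
  have hP3 : ∀ Q : Sylow 3 M, Nat.card (Q : Subgroup M) = 3 := by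
    intro Q
    have := Cfsg.Agent.Lib.SmallSimple.sylow_card_of_eq (a := 1) (m := 4) Q (by rw [hc]; norm_num) (by norm_num)
    simpa using this
  have hW4 : ∀ Q : Sylow 2 M, Nat.card (Q : Subgroup M) = 4 := by
    intro Q
    have := Cfsg.Agent.Lib.SmallSimple.sylow_card_of_eq (a := 2) (m := 3) Q (by rw [hc]; norm_num) (by norm_num)
    simpa using this
  have hidx : (P : Subgroup M).index = 4 := by
    have := Subgroup.card_mul_index (P : Subgroup M)
    rw [hP3, hc] at this
    omega
  have h1 : Nat.card (Sylow 3 M) ∣ 4 := hidx ▸ Sylow.card_dvd_index P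
  have h2 := card_sylow_modEq_one 3 M
  have hn : Nat.card (Sylow 3 M) = 4 := by
    have hle := Nat.le_of_dvd (by norm_num) h1
    have hpos : 0 < Nat.card (Sylow 3 M) := Nat.card_pos
    have hne1 : Nat.card (Sylow 3 M) ≠ 1 := by
      intro h3
      haveI : Subsingleton (Sylow 3 M) := (Nat.card_eq_one_iff_unique.1 h3).1
      exact hP (Sylow.normal_of_subsingleton P)
    unfold Nat.ModEq at h2
    generalize Nat.card (Sylow 3 M) = n at *
    interval_cases n <;> simp_all
  have h8 := Cfsg.Agent.Lib.SmallSimple.card_orderOf_eq_prime (G := M) (p := 3) hP3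
  rw [hn] at h8
  let S : Set M := {g | orderOf g = 3}
  have hS : S.ncard = 8 := by
    have : Nat.card S = 8 := h8
    rwa [Nat.card_coe_set_eq] at this
  have hSc : Sᶜ.ncard = 4 := by
    have := Set.ncard_add_ncard_compl S
    rw [hc, hS] at this
    omega
  have hall : ∀ Q : Sylow 2 M, ((Q : Subgroup M) : Set M) = Sᶜ := by
    intro Q
    refine Set.eq_of_subset_of_ncard_le ?_ ?_ (Set.toFinite _)
    · intro g hg hg3
      have h3 : orderOf g ∣ Nat.card (Q : Subgroup M) := Subgroup.orderOf_dvd_natCard _ hg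
      rw [hW4, show orderOf g = 3 from hg3] at h3
      omega
    · rw [hSc, ← Nat.card_coe_set_eq]
      exact (hW4 Q).ge
  haveI : Subsingleton (Sylow 2 M) := by
    constructor
    intro Q1 Q2
    apply Sylow.ext
    apply SetLike.coe_injective
    rw [hall, hall]
  exact Sylow.normal_of_subsingleton W

end aux

namespace Rep

variable {G : Type*} [Group G] (R : Rep G)
include R

theorem isCoatom_of_card [Finite G] (h : Nat.card G = 168) (K : Subgroup G) (hK : Nat.card K = 24) : IsCoatom K := by
  constructor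
  · rintro rfl
    rw [Subgroup.card_top, h] at hK
    omega
  · intro b hb
    apply Subgroup.eq_top_of_card_eq
    have h1 : Nat.card K ∣ Nat.card b := Subgroup.card_dvd_of_le hb.le
    have h2 : Nat.card b ∣ Nat.card G := Subgroup.card_subgroup_dvd_card b
    have h3 : Nat.card K < Nat.card b := by
      apply lt_of_le_of_ne (Subgroup.card_le_of_le hb.le)
      intro h4
      exact hb.ne (Subgroup.eq_of_le_of_card_ge hb.le h4.ge)
    rw [hK] at h1 h3
    rw [h] at h2 ⊢
    obtain ⟨k, hk⟩ := h1
    obtain ⟨l, hl⟩ := h2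
    rw [hk] at hl h3 ⊢
    have hkl : k * l = 7 := by nlinarith
    have : k = 1 ∨ k = 7 := (Nat.dvd_prime (by norm_num)).1 ⟨l, hkl.symm⟩
    omega

theorem card_normalizer7 [Finite G] (h : Nat.card G = 168) (P : Sylow 7 G) :
    Nat.card (Subgroup.normalizer ((P : Subgroup G) : Set G)) = 21 := by
  haveI : Fact (Nat.Prime 7) := ⟨by norm_num⟩
  have h1 : Nat.card (Subgroup.normalizer ((P : Subgroup G) : Set G)) * Nat.card (Sylow 7 G) = Nat.card G :=
    Cfsg.Agent.Lib.SmallSimple.card_normalizer_mul_card_sylow 7 P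
  rw [R.card_sylow7 h, h] at h1
  omega

theorem case_two_group [Finite G] (h : Nat.card G = 168) (M : Subgroup G) (hM : IsCoatom M)
    (hp : IsPGroup 2 M) : ∃ g, M = cm g R.N1 ∨ M = cm g R.N2 := by
  obtain ⟨T, hT⟩ := hp.exists_le_sylow
  obtain ⟨g, hg⟩ := R.exists_conj_T0 h T
  rw [hg] at hT
  refine ⟨g, Or.inl ?_⟩
  apply coatom_eq hM
  · refine hT.trans (cm_le g ?_)
    rintro _ ⟨x, hx, rfl⟩
    exact ⟨x, T_le_N1 x hx, rfl⟩
  · have hc : Nat.card (cm g R.N1) = 24 := by rw [card_cm, R.card_N1]
    rintro h1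
    rw [h1, Subgroup.card_top, h] at hc
    omega

theorem Q3_normalizer_le [Finite G] : Subgroup.normalizer ((R.sub lQ3 lQ3_ok : Subgroup G) : Set G) ≤ R.N1 := by
  rw [R.normalizer_sub (h' := lNQ3_ok) norm_Q3]
  rintro _ ⟨x, hx, rfl⟩
  exact ⟨x, NQ3_le x hx, rfl⟩

theorem case_normal3 [Finite G] (h : Nat.card G = 168) (M : Subgroup G) (hM : IsCoatom M)
    (A : Subgroup G) (hA : Nat.card A = 3) (hMA : M ≤ Subgroup.normalizer (A : Set G)) :
    ∃ g, M = cm g R.N1 ∨ M = cm g R.N2 := by
  haveI : Fact (Nat.Prime 3) := ⟨by norm_num⟩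
  have hf : (Nat.card G).factorization 3 = 1 := by
    rw [h]
    exact Cfsg.Agent.Lib.SmallSimple.factorization_of_card (p := 3) (a := 1) (m := 56) (by norm_num) (by norm_num)
  let Q0 : Sylow 3 G := Sylow.ofCard (R.sub lQ3 lQ3_ok) (by
    rw [R.card_sub lQ3_ok lQ3_nd, lQ3_len, hf]; norm_num)
  let A0 : Sylow 3 G := Sylow.ofCard A (by rw [hA, hf]; norm_num)
  obtain ⟨g, hg⟩ := MulAction.exists_smul_eq G Q0 A0
  have hAg : A = cm g (R.sub lQ3 lQ3_ok) := by
    have : ((g • Q0 : Sylow 3 G) : Subgroup G) = (A0 : Subgroup G) := by rw [hg]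
    rw [Sylow.coe_subgroup_smul] at this
    exact this.symm
  refine ⟨g, Or.inl ?_⟩
  apply coatom_eq hM
  · rw [hAg, normalizer_cm] at hMA
    exact hMA.trans (cm_le g R.Q3_normalizer_le)
  · have hc : Nat.card (cm g R.N1) = 24 := by rw [card_cm, R.card_N1]
    rintro h1
    rw [h1, Subgroup.card_top, h] at hc
    omega

theorem case_klein [Finite G] (h : Nat.card G = 168) (M : Subgroup G) (hM : IsCoatom M)
    (B : Subgroup G) (hB : IsKleinFour B) (hMB : M ≤ Subgroup.normalizer (B : Set G)) :
    ∃ g, M = cm g R.N1 ∨ M = cm g R.N2 := by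
  obtain ⟨g, hg | hg⟩ := R.exists_klein_eq h B hB
  · refine ⟨g, Or.inl ?_⟩
    rw [hg, normalizer_cm, R.norm_V1_eq] at hMB
    apply coatom_eq hM hMB
    have hc : Nat.card (cm g R.N1) = 24 := by rw [card_cm, R.card_N1]
    rintro h1
    rw [h1, Subgroup.card_top, h] at hc
    omega
  · refine ⟨g, Or.inr ?_⟩
    rw [hg, normalizer_cm, R.norm_V2_eq] at hMB
    apply coatom_eq hM hMB
    have hc : Nat.card (cm g R.N2) = 24 := by rw [card_cm, R.card_N2]
    rintro h1
    rw [h1, Subgroup.card_top, h] at hc
    omega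

/-- a cyclic subgroup of order 4 is not normalized by an element of order 3 -/
theorem no_cyclic4 {y x : G} {B : Subgroup G} (hy : y ∈ B) (hB : Nat.card B = 4) [Finite G]
    (hy4 : orderOf y = 4) (hx : orderOf x = 3) (hxB : x ∈ Subgroup.normalizer (B : Set G)) : False := by
  have hBz : B = Subgroup.zpowers y := by
    symm
    apply Subgroup.eq_of_le_of_card_ge
    · rw [Subgroup.zpowers_le]; exact hy
    · rw [Nat.card_zpowers, hB, hy4]
  have hz : x * y * x⁻¹ ∈ B := (Subgroup.mem_normalizer_iff.1 hxB y).1 hy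
  rw [hBz, Subgroup.mem_zpowers_iff] at hz
  obtain ⟨k, hk⟩ := hz
  obtain ⟨a, ha, rfl⟩ := R.E_surj x
  obtain ⟨b, hb, rfl⟩ := R.E_surj y
  rw [R.orderOf_E ha] at hx
  rw [R.orderOf_E hb] at hy4
  obtain ⟨h1, h2⟩ := chk34 a ha hx b hb hy4
  have hoE : orderOf (R.E b) = 4 := by rw [R.orderOf_E hb, hy4]
  have hk2 : R.E b ^ (k % 4) = R.E a * R.E b * (R.E a)⁻¹ := by
    have h9 := zpow_mod_orderOf (R.E b) k
    rw [hoE] at h9
    rw [← hk]
    exact_mod_cast h9
  have hlt : 0 ≤ k % 4 ∧ k % 4 < 4 := ⟨Int.emod_nonneg _ (by norm_num), Int.emod_lt_of_pos _ (by norm_num)⟩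
  have hcases : k % 4 = 0 ∨ k % 4 = 1 ∨ k % 4 = 2 ∨ k % 4 = 3 := by omega
  have hord : orderOf (R.E a * R.E b * (R.E a)⁻¹) = 4 := by
    rw [← hoE]
    exact (SemiconjBy.orderOf_eq (R.E a) (show SemiconjBy (R.E a) (R.E b) (R.E a * R.E b * (R.E a)⁻¹) by
      unfold SemiconjBy; group)).symm
  have he4 : R.E b ^ 4 = 1 := by
    rw [← hoE]
    exact pow_orderOf_eq_one _
  rcases hcases with hc | hc | hc | hc <;> rw [hc] at hk2
  · rw [← hk2, zpow_zero, orderOf_one] at hord
    omega
  · apply h1
    rw [← R.E_eq_iff (cj_mem ha hb) hb, R.E_cj ha hb, ← hk2, zpow_one]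
  · rw [← hk2] at hord
    have h3 : (R.E b ^ (2 : ℤ)) ^ 2 = 1 := by
      rw [← zpow_natCast, ← zpow_mul]
      exact_mod_cast he4
    have := orderOf_dvd_of_pow_eq_one h3
    rw [hord] at this
    omega
  · apply h2
    rw [← R.E_eq_iff (cj_mem ha hb) (ninv_mem b hb), R.E_cj ha hb, ← hk2, R.E_ninv hb]
    apply eq_inv_of_mul_eq_one_left
    calc R.E b ^ (3 : ℤ) * R.E b = R.E b ^ (3 + 1 : ℤ) := (zpow_add_one _ _).symm
      _ = 1 := by norm_num; exact he4

theorem coatom_cases [Finite G] [IsSimpleGroup G] (h : Nat.card G = 168) (M : Subgroup G) (hM : IsCoatom M) :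
    (∃ P : Sylow 7 G, M = Subgroup.normalizer ((P : Subgroup G) : Set G)) ∨
      ∃ g, M = cm g R.N1 ∨ M = cm g R.N2 := by
  have hnc : ¬ IsMulCommutative G := Cfsg.Agent.Lib.SmallSimple.not_comm_of_not_prime (by rw [h]; norm_num)
  have hne : M ≠ ⊤ := hM.1
  have hmul := Subgroup.card_mul_index M
  rw [h] at hmul
  have hfac := Cfsg.Agent.Lib.SmallSimple.two_mul_card_dvd_factorial hnc M hne
  rw [h] at hfac
  have hk7 : 7 ≤ M.index := by
    by_contra hlt
    have hlt' : M.index < 7 := by omega
    generalize M.index = k at *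
    interval_cases k <;> revert hfac <;> decide
  have hn24 : Nat.card M ≤ 24 := by
    by_contra hgt
    have : 25 * 7 ≤ Nat.card M * M.index := Nat.mul_le_mul (by omega) hk7
    omega
  have hn0 : 0 < Nat.card M := Nat.card_pos
  have hdvd : Nat.card M ∣ 168 := ⟨_, hmul.symm⟩
  by_cases h7 : 7 ∣ Nat.card M
  · -- the normalizer of a Sylow 7-subgroup
    left
    obtain ⟨m, hm⟩ := h7
    have hm3 : m ≤ 3 := by omega
    have hm0 : 0 < m := by
      rcases Nat.eq_zero_or_pos m with rfl | h0
      · omega
      · exact h0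
    haveI : Fact (Nat.Prime 7) := ⟨by norm_num⟩
    obtain ⟨P'⟩ : Nonempty (Sylow 7 M) := inferInstance
    have hm7 : ¬ 7 ∣ m := fun hd => by
      have := Nat.le_of_dvd hm0 hd
      omega
    haveI hnorm := normal_sylow_of_small hm hm7 (by omega) P'
    have hcard : Nat.card (P' : Subgroup M) = 7 := by
      have := Cfsg.Agent.Lib.SmallSimple.sylow_card_of_eq (a := 1) (m := m) P' (by rw [hm, pow_one]) hm7
      simpa using this
    have hA : Nat.card (((P' : Subgroup M).map M.subtype : Subgroup G)) = 7 := by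
      rw [Subgroup.card_map_of_injective M.subtype_injective, hcard]
    have hf : (Nat.card G).factorization 7 = 1 := by
      rw [h]
      exact Cfsg.Agent.Lib.SmallSimple.factorization_of_card (p := 7) (a := 1) (m := 24) (by norm_num) (by norm_num)
    let S : Sylow 7 G := Sylow.ofCard ((P' : Subgroup M).map M.subtype) (by rw [hA, hf]; norm_num)
    refine ⟨S, coatom_eq hM (le_normalizer_of_normal M (P' : Subgroup M)) ?_⟩
    intro htop
    have h1 := R.card_normalizer7 h S
    rw [htop, Subgroup.card_top, h] at h1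
    omega
  · right
    have hd24 : Nat.card M ∣ 24 := by
      have hcop : Nat.Coprime (Nat.card M) 7 :=
        ((Nat.Prime.coprime_iff_not_dvd (by norm_num)).2 h7).symm
      exact hcop.dvd_of_dvd_mul_left (by simpa using hdvd)
    by_cases h3 : 3 ∣ Nat.card M
    · haveI : Fact (Nat.Prime 3) := ⟨by norm_num⟩
      have hfac2 : (Nat.card G).factorization 2 = 3 := R.card_G h
      have hf3 : (Nat.card G).factorization 3 = 1 := by
        rw [h]
        exact Cfsg.Agent.Lib.SmallSimple.factorization_of_card (p := 3) (a := 1) (m := 56) (by norm_num) (by norm_num)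
      -- the possible orders
      have hcases : Nat.card M = 3 ∨ Nat.card M = 6 ∨ Nat.card M = 12 ∨ Nat.card M = 24 := by
        have hle := Nat.le_of_dvd (by norm_num) hd24
        generalize Nat.card M = n at *
        interval_cases n <;> omega
      rcases hcases with h3' | h3' | h3' | h3'
      · -- order 3
        obtain ⟨P'⟩ : Nonempty (Sylow 3 M) := inferInstance
        haveI hnorm := normal_sylow_of_small (k := 1) (p := 3) (by rw [h3']) (by norm_num) (by norm_num) P'
        have hcard : Nat.card (P' : Subgroup M) = 3 := by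
          have := Cfsg.Agent.Lib.SmallSimple.sylow_card_of_eq (a := 1) (m := 1) P' (by rw [h3']; norm_num) (by norm_num)
          simpa using this
        exact R.case_normal3 h M hM _ (by rw [Subgroup.card_map_of_injective M.subtype_injective, hcard])
          (le_normalizer_of_normal M (P' : Subgroup M))
      · -- order 6
        obtain ⟨P'⟩ : Nonempty (Sylow 3 M) := inferInstance
        haveI hnorm := normal_sylow_of_small (k := 2) (p := 3) (by rw [h3']) (by norm_num) (by norm_num) P'
        have hcard : Nat.card (P' : Subgroup M) = 3 := by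
          have := Cfsg.Agent.Lib.SmallSimple.sylow_card_of_eq (a := 1) (m := 2) P' (by rw [h3']; norm_num) (by norm_num)
          simpa using this
        exact R.case_normal3 h M hM _ (by rw [Subgroup.card_map_of_injective M.subtype_injective, hcard])
          (le_normalizer_of_normal M (P' : Subgroup M))
      · -- order 12
        obtain ⟨P'⟩ : Nonempty (Sylow 3 M) := inferInstance
        have hcard : Nat.card (P' : Subgroup M) = 3 := by
          have := Cfsg.Agent.Lib.SmallSimple.sylow_card_of_eq (a := 1) (m := 4) P' (by rw [h3']; norm_num) (by norm_num)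
          simpa using this
        by_cases hP : (P' : Subgroup M).Normal
        · exact R.case_normal3 h M hM _ (by rw [Subgroup.card_map_of_injective M.subtype_injective, hcard])
            (le_normalizer_of_normal M (P' : Subgroup M))
        · obtain ⟨W⟩ : Nonempty (Sylow 2 M) := inferInstance
          haveI hW := order12_normal h3' P' hP W
          have hWc : Nat.card (W : Subgroup M) = 4 := by
            have := Cfsg.Agent.Lib.SmallSimple.sylow_card_of_eq (a := 2) (m := 3) W (by rw [h3']; norm_num) (by norm_num)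
            simpa using this
          let B : Subgroup G := (W : Subgroup M).map M.subtype
          have hBc : Nat.card B = 4 := by
            rw [Subgroup.card_map_of_injective M.subtype_injective, hWc]
          have hMB : M ≤ Subgroup.normalizer (B : Set G) := le_normalizer_of_normal M (W : Subgroup M)
          by_cases hsq : ∀ y ∈ B, y * y = 1
          · apply R.case_klein h M hM B _ hMB
            refine ⟨hBc, ?_⟩
            haveI : Finite B := Nat.finite_of_card_ne_zero (by omega)
            haveI : Nontrivial B := Finite.one_lt_card_iff_nontrivial.1 (by omega)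
            rw [Monoid.exponent_eq_prime_iff Nat.prime_two]
            rintro ⟨g, hg⟩ hg1
            apply orderOf_eq_prime
            · apply Subtype.ext
              show g ^ 2 = 1
              rw [pow_two, hsq g hg]
            · exact hg1
          · exfalso
            push Not at hsq
            obtain ⟨y, hy, hy2⟩ := hsq
            have hy4 : orderOf y = 4 := by
              have h1 : orderOf y ∣ 4 := hBc ▸ Subgroup.orderOf_dvd_natCard B hy
              have h5 : ¬ y ^ 2 ^ 1 = 1 := by simpa [pow_two] using hy2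
              have h6 : y ^ 2 ^ (1 + 1) = 1 := by
                rw [show (2 : ℕ) ^ (1 + 1) = 4 by norm_num]
                exact orderOf_dvd_iff_pow_eq_one.1 h1
              simpa using orderOf_eq_prime_pow h5 h6
            obtain ⟨x', hx'⟩ := exists_prime_orderOf_dvd_card' (G := M) 3 (by rw [h3']; norm_num)
            have hx3 : orderOf (x' : G) = 3 := by
              rw [Subgroup.orderOf_coe]; exact hx'
            exact R.no_cyclic4 hy hBc hy4 hx3 (hMB x'.2)
      · -- order 24
        obtain ⟨S'⟩ : Nonempty (Sylow 2 M) := inferInstance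
        have hcard : Nat.card (S' : Subgroup M) = 8 := by
          have := Cfsg.Agent.Lib.SmallSimple.sylow_card_of_eq (a := 3) (m := 3) S' (by rw [h3']; norm_num) (by norm_num)
          simpa using this
        let A : Subgroup G := (S' : Subgroup M).map M.subtype
        have hA : Nat.card A = 8 := by rw [Subgroup.card_map_of_injective M.subtype_injective, hcard]
        let A0 : Sylow 2 G := Sylow.ofCard A (by rw [hA, hfac2]; norm_num)
        obtain ⟨g, hg⟩ := R.exists_conj_T0 h A0
        have hAM : A ≤ M := by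
          rintro _ ⟨y, -, rfl⟩
          exact y.2
        have hT : cm g R.T0 ≤ M := by
          have : (A0 : Subgroup G) ≤ M := hAM
          rwa [hg] at this
        -- conjugate back
        have hT' : R.T0 ≤ cm g⁻¹ M := by
          have := cm_le g⁻¹ hT
          rwa [cm_inv] at this
        have hc' : Nat.card (cm g⁻¹ M) = 24 := by rw [card_cm, h3']
        obtain ⟨x', hx'⟩ := exists_prime_orderOf_dvd_card' (G := ↥(cm g⁻¹ M)) 3 (by rw [hc']; norm_num)
        have hx3 : orderOf (x' : G) = 3 := by
          rw [Subgroup.orderOf_coe]; exact hx'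
        obtain ⟨y, hy, hxy⟩ := R.E_surj (x' : G)
        have hord : ord y = 3 := by rw [← R.orderOf_E hy, hxy, hx3]
        have hmemM : R.E y ∈ cm g⁻¹ M := hxy ▸ x'.2
        have key : ∀ {N : Subgroup G}, Nat.card N = 24 → R.T0 ≤ N → R.E y ∈ N → cm g⁻¹ M = N := by
          intro N hN hTN hyN
          have h8 : Nat.card R.T0 ∣ Nat.card ↥(cm g⁻¹ M ⊓ N) := Subgroup.card_dvd_of_le (le_inf hT' hTN)
          have h3'' : orderOf (R.E y) ∣ Nat.card ↥(cm g⁻¹ M ⊓ N) := Subgroup.orderOf_dvd_natCard _ ⟨hmemM, hyN⟩
          rw [R.card_T0] at h8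
          rw [R.orderOf_E hy, hord] at h3''
          have h24 : 24 ∣ Nat.card ↥(cm g⁻¹ M ⊓ N) :=
            Nat.Coprime.mul_dvd_of_dvd_of_dvd (by norm_num : Nat.Coprime 8 3) h8 h3''
          have hle1 : Nat.card ↥(cm g⁻¹ M ⊓ N) ≤ 24 := by
            rw [← hN]
            exact Subgroup.card_le_of_le inf_le_right
          have hpos : 0 < Nat.card ↥(cm g⁻¹ M ⊓ N) := Nat.card_pos
          have heq : Nat.card ↥(cm g⁻¹ M ⊓ N) = 24 := by
            have := Nat.le_of_dvd hpos h24
            omega
          have h1 : cm g⁻¹ M ⊓ N = cm g⁻¹ M :=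
            Subgroup.eq_of_le_of_card_ge inf_le_left (by rw [heq, hc'])
          have h2 : cm g⁻¹ M ≤ N := by
            rw [← h1]; exact inf_le_right
          exact Subgroup.eq_of_le_of_card_ge h2 (by rw [hN, hc'])
        have hback : ∀ {N : Subgroup G}, cm g⁻¹ M = N → M = cm g N := by
          intro N hN
          rw [← hN, cm_inv']
        refine ⟨g, ?_⟩
        have hTN1 : R.T0 ≤ R.N1 := by
          rintro _ ⟨x, hx, rfl⟩
          exact ⟨x, T_le_N1 x hx, rfl⟩
        have hTN2 : R.T0 ≤ R.N2 := by
          rintro _ ⟨x, hx, rfl⟩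
          exact ⟨x, T_le_N2 x hx, rfl⟩
        rcases chk3 y hy hord with h1 | h1 | ⟨t, ht, h1⟩
        · left
          exact hback (key R.card_N1 hTN1 ⟨y, h1, rfl⟩)
        · right
          exact hback (key R.card_N2 hTN2 ⟨y, h1, rfl⟩)
        · exfalso
          have ht' := lT_ok.2.1 t ht
          have hmem : R.E (nm t y) ∈ cm g⁻¹ M := by
            rw [R.E_nm ht' hy]
            exact mul_mem (hT' ⟨t, ht, rfl⟩) hmemM
          have hd := Subgroup.orderOf_dvd_natCard _ hmem
          rw [R.orderOf_E (nm_mem ht' hy), h1, hc'] at hd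
          omega
    · -- a 2-group
      apply R.case_two_group h M hM
      apply IsPGroup.of_card_dvd_pow (n := 3)
      have hcop : Nat.Coprime (Nat.card M) 3 :=
        ((Nat.Prime.coprime_iff_not_dvd (by norm_num)).2 h3).symm
      exact hcop.dvd_of_dvd_mul_right (by simpa using hd24)

end Rep
end Cfsg.Agent.Lib.PslRec.M168
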